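import Cfsg.Agent.Lib.Helper68.SpD.Defs
import Cfsg.Agent.Lib.Helper5.LinearCard

set_option autoImplicit false

namespace Cfsg.Agent.Lib.Helper68.SpD

open Cfsg Cfsg.Geo Matrix
open scoped MatrixGroups

variable {ι : Type} [Fintype ι] [DecidableEq ι] {F : Type*} [Field F]

theorem I2_prod (q n : ℕ) (hq : 1 ≤ q) :
    ∏ i ∈ Finset.range n, (q ^ n - q ^ i)
      = q ^ (n * (n - 1) / 2) * ∏ i ∈ Finset.range n, (q ^ (i + 1) - 1) := by
  have h1 : ∀ i ∈ Finset.range n, q ^ n - q ^ i = q ^ i * (q ^ (n - 1 - i + 1) - 1) := by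
    intro i hi
    have hi' : i < n := Finset.mem_range.1 hi
    have e : n - 1 - i + 1 = n - i := by omega
    rw [e, Nat.mul_sub, mul_one, ← pow_add]
    congr 2
    omega
  rw [Finset.prod_congr rfl h1, Finset.prod_mul_distrib, Finset.prod_pow_eq_pow_sum, Finset.sum_range_id,
    Finset.prod_range_reflect (fun j => q ^ (j + 1) - 1) n]

/-- [I2] -/
theorem card_SL [Fintype F] (n : ℕ) (hn : 1 ≤ n) :
    Nat.card (Matrix.SpecialLinearGroup (Fin n) F) = (Fintype.card F) ^ (n * (n - 1) / 2) *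
      ∏ i ∈ Finset.range (n - 1), ((Fintype.card F) ^ (i + 2) - 1) := by
  classical
  haveI : Nonempty (Fin n) := ⟨⟨0, by omega⟩⟩
  have hq : 1 < Fintype.card F := Fintype.one_lt_card
  have h1 := Cfsg.Agent.Lib.Helper5.card_GL_eq_card_SL_mul_card_units (n := Fin n) (F := F)
  rw [Matrix.card_GL_field, Nat.card_eq_fintype_card (α := Fˣ), Fintype.card_units,
    Fin.prod_univ_eq_prod_range (fun i => Fintype.card F ^ n - Fintype.card F ^ i) n,
    I2_prod _ _ (by omega)] at h1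
  obtain ⟨k, rfl⟩ : ∃ k, n = k + 1 := ⟨n - 1, by omega⟩
  rw [Finset.prod_range_succ'] at h1
  simp only [zero_add, pow_one, Nat.add_sub_cancel] at h1 ⊢
  have hpos : 0 < Fintype.card F - 1 := by omega
  apply Nat.eq_of_mul_eq_mul_right hpos
  rw [← h1]
  ring

end Cfsg.Agent.Lib.Helper68.SpD
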