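import Cfsg.Agent.Lib.Helper68.SpD.Defs

set_option autoImplicit false

namespace Cfsg.Agent.Lib.Helper68.SpD

open Cfsg Cfsg.Geo Matrix
open scoped MatrixGroups

variable {ι : Type} [Fintype ι] [DecidableEq ι] {F : Type*} [Field F]

/-- transport of a symplectic form by an invertible matrix -/
theorem CJ_symp (f : (ι → F) → (ι → F) → F) (hf : IsSymplecticForm f) (A B : Matrix ι ι F)
    (hAB : A * B = 1) (hBA : B * A = 1) :
    IsSymplecticForm (fun u v => f (A *ᵥ u) (A *ᵥ v)) where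
  bilinear :=
    { add_left := fun x y v => by simp only [Matrix.mulVec_add, hf.bilinear.add_left]
      smul_left := fun c x v => by simp only [Matrix.mulVec_smul, hf.bilinear.smul_left]
      add_right := fun v x y => by simp only [Matrix.mulVec_add, hf.bilinear.add_right]
      smul_right := fun c v x => by simp only [Matrix.mulVec_smul, hf.bilinear.smul_right] }
  skew := fun v w => hf.skew _ _
  alternating := fun v => hf.alternating _
  nondegenerate := by
    intro v hv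
    have hAv : A *ᵥ v ≠ 0 := by
      intro h0
      apply hv
      have := congrArg (fun w => B *ᵥ w) h0
      simpa [Matrix.mulVec_mulVec, hBA] using this
    obtain ⟨⟨x, hx⟩, ⟨y, hy⟩⟩ := hf.nondegenerate _ hAv
    refine ⟨⟨B *ᵥ x, ?_⟩, ⟨B *ᵥ y, ?_⟩⟩
    · simpa [Matrix.mulVec_mulVec, hAB] using hx
    · simpa [Matrix.mulVec_mulVec, hAB] using hy

/-- [CJ] -/
theorem not_mem_of_noSim {n : ℕ} (x : Matrix.SpecialLinearGroup (Fin n) F)
    (hx : NoSim (x : Matrix (Fin n) (Fin n) F)) (f : (Fin n → F) → (Fin n → F) → F)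
    (hf : IsSymplecticForm f) (P : Matrix.SpecialLinearGroup (Fin n) F) :
    P⁻¹ * x * P ∉ (similarityGroup f).comap
      (Matrix.SpecialLinearGroup.toGL : Matrix.SpecialLinearGroup (Fin n) F →* GL (Fin n) F) := by
  intro hmem
  obtain ⟨c, hc⟩ := hmem
  have h1 : ((P⁻¹ : Matrix.SpecialLinearGroup (Fin n) F) : Matrix (Fin n) (Fin n) F)
      * (P : Matrix (Fin n) (Fin n) F) = 1 := by
    rw [← Matrix.SpecialLinearGroup.coe_mul, inv_mul_cancel, Matrix.SpecialLinearGroup.coe_one]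
  have h2 : (P : Matrix (Fin n) (Fin n) F)
      * ((P⁻¹ : Matrix.SpecialLinearGroup (Fin n) F) : Matrix (Fin n) (Fin n) F) = 1 := by
    rw [← Matrix.SpecialLinearGroup.coe_mul, mul_inv_cancel, Matrix.SpecialLinearGroup.coe_one]
  refine hx _ (CJ_symp f hf _ _ h1 h2) c ?_
  intro u v
  have h3 := hc (((P⁻¹ : Matrix.SpecialLinearGroup (Fin n) F) : Matrix (Fin n) (Fin n) F) *ᵥ u)
    (((P⁻¹ : Matrix.SpecialLinearGroup (Fin n) F) : Matrix (Fin n) (Fin n) F) *ᵥ v)
  have h4 : ∀ w : Fin n → F,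
      ((Matrix.SpecialLinearGroup.toGL (P⁻¹ * x * P) : GL (Fin n) F) : Matrix (Fin n) (Fin n) F) *ᵥ
        (((P⁻¹ : Matrix.SpecialLinearGroup (Fin n) F) : Matrix (Fin n) (Fin n) F) *ᵥ w)
      = ((P⁻¹ : Matrix.SpecialLinearGroup (Fin n) F) : Matrix (Fin n) (Fin n) F) *ᵥ
        ((x : Matrix (Fin n) (Fin n) F) *ᵥ w) := by
    intro w
    rw [Matrix.SpecialLinearGroup.coe_GL_coe_matrix, Matrix.SpecialLinearGroup.coe_mul,
      Matrix.SpecialLinearGroup.coe_mul, Matrix.mulVec_mulVec, Matrix.mulVec_mulVec,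
      Matrix.mul_assoc, h2, Matrix.mul_one]
  rw [h4, h4] at h3
  exact h3

end Cfsg.Agent.Lib.Helper68.SpD
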