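import Cfsg.Agent.Lib.Helper68.SpD.Defs

set_option autoImplicit false
set_option linter.unusedSectionVars false

/-! S5968 farm: common lemmas for the pieces E2 E3 U1 (helper72). -/

namespace Cfsg.Agent.Lib.Helper68.SpD

open Cfsg Cfsg.Geo Matrix
open scoped MatrixGroups

variable {ι : Type} [Fintype ι] [DecidableEq ι] {F : Type*} [Field F]

/-- the form as a bilinear map. -/
def Com72_bil (f : (ι → F) → (ι → F) → F) (hf : IsSymplecticForm f) : LinearMap.BilinForm F (ι → F) :=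
  LinearMap.mk₂ F f hf.bilinear.add_left hf.bilinear.smul_left hf.bilinear.add_right
    hf.bilinear.smul_right

lemma Com72_bil_apply (f : (ι → F) → (ι → F) → F) (hf : IsSymplecticForm f) (u v : ι → F) :
    Com72_bil f hf u v = f u v := rfl

lemma Com72_sim_pow {f : (ι → F) → (ι → F) → F} {x : Matrix ι ι F} {c : F}
    (h : ∀ u v, f (x *ᵥ u) (x *ᵥ v) = c * f u v) (j : ℕ) :
    ∀ u v, f ((x ^ j) *ᵥ u) ((x ^ j) *ᵥ v) = c ^ j * f u v := by
  induction j with
  | zero => intro u v; simp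
  | succ j ih =>
    intro u v
    rw [pow_succ', ← Matrix.mulVec_mulVec, ← Matrix.mulVec_mulVec, h, ih, pow_succ']
    ring

lemma Com72_pow_eq_one {f : (ι → F) → (ι → F) → F} (hf : IsSymplecticForm f) {x : Matrix ι ι F} {c : F}
    (h : ∀ u v, f (x *ᵥ u) (x *ᵥ v) = c * f u v) {j : ℕ} (hx : x ^ j = 1) {w : ι → F} (hw : w ≠ 0) :
    c ^ j = 1 := by
  obtain ⟨u, hu⟩ := (hf.nondegenerate w hw).1
  have h1 := Com72_sim_pow h j u w
  rw [hx, Matrix.one_mulVec, Matrix.one_mulVec] at h1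
  have h2 : (c ^ j - 1) * f u w = 0 := by linear_combination -h1
  rcases mul_eq_zero.1 h2 with h3 | h3
  · exact sub_eq_zero.1 h3
  · exact absurd h3 hu

end Cfsg.Agent.Lib.Helper68.SpD
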