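import Cfsg.Agent.Lib.Helper68.SpD.Defs

set_option autoImplicit false

namespace Cfsg.Agent.Lib.Helper68.SpD

open Cfsg Cfsg.Geo Matrix
open scoped MatrixGroups

variable {ι : Type} [Fintype ι] [DecidableEq ι] {F : Type*} [Field F]

theorem D0_zero_right (f : (ι → F) → (ι → F) → F) (hf : IsBilinearForm f) (u : ι → F) :
    f u 0 = 0 := by
  have := hf.smul_right 0 u 0
  simpa using this

theorem D0_sum_right (f : (ι → F) → (ι → F) → F) (hf : IsBilinearForm f) (u : ι → F)
    {κ : Type} (s : Finset κ) (g : κ → ι → F) :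
    f u (∑ k ∈ s, g k) = ∑ k ∈ s, f u (g k) := by
  classical
  induction s using Finset.induction_on with
  | empty => simpa using D0_zero_right f hf u
  | insert a s ha ih => rw [Finset.sum_insert ha, Finset.sum_insert ha, hf.add_right, ih]

theorem D0_diag_single (d : ι → F) (a : ι) :
    Matrix.diagonal d *ᵥ (Pi.single a 1 : ι → F) = d a • (Pi.single a 1 : ι → F) := by
  ext i
  rw [Matrix.mulVec_diagonal]
  by_cases h : i = a
  · subst h; simp
  · simp [h]

/-- [D0] -/
theorem partner (d : ι → F) (f : (ι → F) → (ι → F) → F) (hf : IsSymplecticForm f) (c : F)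
    (h : ∀ u v, f (Matrix.diagonal d *ᵥ u) (Matrix.diagonal d *ᵥ v) = c * f u v) :
    (∀ a b : ι, f (Pi.single a 1) (Pi.single b 1) ≠ 0 → d a * d b = c) ∧
      ∀ a : ι, ∃ b, b ≠ a ∧ f (Pi.single a 1) (Pi.single b 1) ≠ 0 := by
  constructor
  · intro a b hab
    have h1 := h (Pi.single a 1) (Pi.single b 1)
    rw [D0_diag_single, D0_diag_single, hf.bilinear.smul_left, hf.bilinear.smul_right,
      ← mul_assoc] at h1
    exact mul_right_cancel₀ hab h1
  · intro a
    have hne : (Pi.single a 1 : ι → F) ≠ 0 := by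
      intro h0
      have := congrFun h0 a
      simp at this
    obtain ⟨-, ⟨v, hv⟩⟩ := hf.nondegenerate _ hne
    by_contra hcon
    push Not at hcon
    apply hv
    have hvs : v = ∑ b, v b • (Pi.single b 1 : ι → F) := by
      ext i
      simp [Finset.sum_apply, Pi.single_apply]
    rw [hvs, D0_sum_right f hf.bilinear]
    apply Finset.sum_eq_zero
    intro b _
    rw [hf.bilinear.smul_right]
    by_cases hb : b = a
    · subst hb
      rw [hf.alternating, mul_zero]
    · rw [hcon b hb, mul_zero]

end Cfsg.Agent.Lib.Helper68.SpD
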