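import Cfsg.Agent.Lib.Helper68.SpD.D5
import Cfsg.Agent.Lib.Helper2.Sp.SCb

set_option autoImplicit false

namespace Cfsg.Agent.Lib.Helper68.SpD

open Cfsg Cfsg.Geo Matrix
open scoped MatrixGroups

variable {ι : Type} [Fintype ι] [DecidableEq ι] {F : Type*} [Field F]

/-- the coordinate subspace of a set of indices -/
noncomputable def D3_sp (F : Type*) [Field F] (P : ι → Prop) : Submodule F (ι → F) :=
  Submodule.span F (Set.range fun a : {a // P a} => (Pi.single a.1 1 : ι → F))

theorem D3_finrank (P : ι → Prop) [DecidablePred P] :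
    Module.finrank F (D3_sp F P) = Fintype.card {a // P a} := by
  apply finrank_span_eq_card
  have h := (Pi.basisFun F ι).linearIndependent.comp (fun a : {a // P a} => a.1)
    Subtype.val_injective
  convert h using 1
  funext a
  simp [Function.comp]

theorem D3_zero_left (f : (ι → F) → (ι → F) → F) (hf : IsBilinearForm f) (u : ι → F) :
    f 0 u = 0 := by
  have := hf.smul_left 0 0 u
  simpa using this

theorem D3_sing (f : (ι → F) → (ι → F) → F) (hf : IsBilinearForm f) (P : ι → Prop)
    (h : ∀ a b, P a → P b → f (Pi.single a 1) (Pi.single b 1) = 0) :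
    IsTotallySingularFor f (D3_sp F P) := by
  intro u hu v hv
  induction hu using Submodule.span_induction with
  | mem x hx =>
    obtain ⟨a, rfl⟩ := hx
    induction hv using Submodule.span_induction with
    | mem y hy =>
      obtain ⟨b, rfl⟩ := hy
      exact h _ _ a.2 b.2
    | zero => exact D0_zero_right f hf _
    | add y z _ _ hy hz => rw [hf.add_right, hy, hz, add_zero]
    | smul c y _ hy => rw [hf.smul_right, hy, mul_zero]
  | zero => exact D3_zero_left f hf _
  | add y z _ _ hy hz => rw [hf.add_left, hy, hz, add_zero]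
  | smul c y _ hy => rw [hf.smul_left, hy, mul_zero]

theorem D3_card {n : ℕ} (hn : 4 ≤ n) : Fintype.card {a : Fin n // a.1 < 3} = 3 := by
  have e : Fin 3 ≃ {a : Fin n // a.1 < 3} :=
    { toFun := fun i => ⟨⟨i.1, by omega⟩, i.2⟩
      invFun := fun a => ⟨a.1.1, a.2⟩
      left_inv := fun i => rfl
      right_inv := fun a => rfl }
  rw [← Fintype.card_congr e, Fintype.card_fin]

/-- [D3] -/
theorem exists_diag3 [Fintype F] (hr : 3 ∣ Fintype.card F - 1) (n : ℕ) (hn : 4 ≤ n)
    (h6 : n ≠ 6) :
    ∃ x : Matrix.SpecialLinearGroup (Fin n) F, x ^ 3 = 1 ∧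
      (∀ z : F, (x : Matrix (Fin n) (Fin n) F) ≠ z • (1 : Matrix (Fin n) (Fin n) F)) ∧
      NoSim (x : Matrix (Fin n) (Fin n) F) := by
  haveI : Fact (Nat.Prime 3) := ⟨by norm_num⟩
  obtain ⟨L, hL0, hLr, hLk⟩ := D5_exists_order (F := F) 3 hr
  have hL1 : L ≠ 1 := fun h => by
    have := Nat.le_of_dvd (by norm_num) (hLk 1 (by rw [pow_one, h])); omega
  have hL2 : L ^ 2 ≠ 1 := fun h => by
    have := Nat.le_of_dvd (by norm_num) (hLk 2 h); omega
  set g : ℕ → F := fun k => if k < 3 then L else 1 with hg
  have hglt : ∀ k, k < 3 → g k = L := fun k hk => by simp only [hg]; rw [if_pos hk]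
  have hgge : ∀ k, ¬ k < 3 → g k = 1 := fun k hk => by simp only [hg]; rw [if_neg hk]
  have hg2 : ∀ k, g k = L ∨ g k = 1 := by
    intro k
    by_cases hk : k < 3
    · exact Or.inl (hglt k hk)
    · exact Or.inr (hgge k hk)
  refine D5_pack 3 (fun i : Fin n => g i.1) ?_ ?_ ⟨0, by omega⟩ ⟨3, by omega⟩ ?_ ?_
  · rw [D5_prod hn g (fun k hk => hgge k (by omega)), hglt 0 (by omega), hglt 1 (by omega),
      hglt 2 (by omega)]
    linear_combination hLr
  · intro i
    rcases hg2 i.1 with h | h <;> simp only [h]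
    · exact hLr
    · exact one_pow 3
  · simp only [hglt 0 (by omega), hgge 3 (by omega)]
    exact hL1
  · intro f hf c hsim
    obtain ⟨hp1, hp2⟩ := partner _ f hf c hsim
    obtain ⟨b3, hb3, hfb3⟩ := hp2 ⟨3, by omega⟩
    obtain ⟨b0, hb0, hfb0⟩ := hp2 ⟨0, by omega⟩
    have e3 := hp1 _ _ hfb3
    have e0 := hp1 _ _ hfb0
    simp only [hglt 0 (by omega), hgge 3 (by omega)] at e3 e0
    have hc : c = L := by
      rcases hg2 b3.1 with h3 | h3
      · rw [h3] at e3
        rw [← e3, one_mul]
      · rw [h3] at e3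
        rcases hg2 b0.1 with h0 | h0
        · rw [h0] at e0
          exact absurd (by linear_combination e0 - e3 : L ^ 2 = 1) hL2
        · rw [h0] at e0
          exact absurd (by linear_combination e0 - e3 : L = 1) hL1
    have hU : IsTotallySingularFor f (D3_sp F (fun a : Fin n => a.1 < 3)) := by
      apply D3_sing f hf.bilinear
      intro a b ha hb
      by_contra hne
      have := hp1 a b hne
      simp only [hglt _ ha, hglt _ hb, hc] at this
      exact hL1 (mul_left_cancel₀ hL0 (by linear_combination this))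
    have hW : IsTotallySingularFor f (D3_sp F (fun a : Fin n => ¬ a.1 < 3)) := by
      apply D3_sing f hf.bilinear
      intro a b ha hb
      by_contra hne
      have := hp1 a b hne
      simp only [hgge _ ha, hgge _ hb, hc] at this
      exact hL1 (by linear_combination -this)
    have h1 := Cfsg.Agent.Lib.Helper2.Sp.two_mul_finrank_le hf hU
    have h2 := Cfsg.Agent.Lib.Helper2.Sp.two_mul_finrank_le hf hW
    rw [D3_finrank, Fintype.card_fin] at h1 h2
    rw [D3_card hn] at h1
    rw [Fintype.card_subtype_compl, D3_card hn, Fintype.card_fin] at h2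
    omega

end Cfsg.Agent.Lib.Helper68.SpD
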