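import Cfsg.Agent.Lib.Helper68.SpD.D0

set_option autoImplicit false

namespace Cfsg.Agent.Lib.Helper68.SpD

open Cfsg Cfsg.Geo Matrix
open scoped MatrixGroups

variable {ι : Type} [Fintype ι] [DecidableEq ι] {F : Type*} [Field F]

/-- packaging a diagonal matrix -/
theorem D5_pack {n : ℕ} (r : ℕ) (d : Fin n → F) (hdet : ∏ i, d i = 1) (hpow : ∀ i, d i ^ r = 1)
    (i j : Fin n) (hij : d i ≠ d j) (hno : NoSim (Matrix.diagonal d)) :
    ∃ x : Matrix.SpecialLinearGroup (Fin n) F, x ^ r = 1 ∧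
      (∀ z : F, (x : Matrix (Fin n) (Fin n) F) ≠ z • (1 : Matrix (Fin n) (Fin n) F)) ∧
      NoSim (x : Matrix (Fin n) (Fin n) F) := by
  let x : Matrix.SpecialLinearGroup (Fin n) F :=
    ⟨Matrix.diagonal d, by rw [Matrix.det_diagonal, hdet]⟩
  have hx : (x : Matrix (Fin n) (Fin n) F) = Matrix.diagonal d := rfl
  refine ⟨x, ?_, ?_, hno⟩
  · have hmat : (Matrix.diagonal d) ^ r = (1 : Matrix (Fin n) (Fin n) F) := by
      rw [Matrix.diagonal_pow, ← Matrix.diagonal_one]
      congr 1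
      funext k
      exact hpow k
    apply Matrix.SpecialLinearGroup.ext_iff _ _ |>.2
    intro a b
    rw [Matrix.SpecialLinearGroup.coe_pow, Matrix.SpecialLinearGroup.coe_one, hx, hmat]
  · intro z hz
    rw [hx] at hz
    apply hij
    have h1 := congrFun (congrFun hz i) i
    have h2 := congrFun (congrFun hz j) j
    simp at h1 h2
    rw [h1, h2]

/-- an element of prime order `r` in the field -/
theorem D5_exists_order [Fintype F] (r : ℕ) [Fact r.Prime] (hr : r ∣ Fintype.card F - 1) :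
    ∃ L : F, L ≠ 0 ∧ L ^ r = 1 ∧ ∀ k : ℕ, L ^ k = 1 → r ∣ k := by
  classical
  have hcard : Fintype.card Fˣ = Fintype.card F - 1 := Fintype.card_units F
  obtain ⟨u, hu⟩ := exists_prime_orderOf_dvd_card r (by rw [hcard]; exact hr : r ∣ Fintype.card Fˣ)
  refine ⟨(u : F), u.ne_zero, ?_, ?_⟩
  · rw [← Units.val_pow_eq_pow_val, ← hu, pow_orderOf_eq_one, Units.val_one]
  · intro k hk
    rw [← hu]
    apply orderOf_dvd_of_pow_eq_one
    apply Units.ext
    rw [Units.val_pow_eq_pow_val, hk, Units.val_one]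

/-- product of a function on `Fin n` that is `1` from `3` on -/
theorem D5_prod {n : ℕ} (hn : 4 ≤ n) (g : ℕ → F) (hg : ∀ k, 3 ≤ k → g k = 1) :
    ∏ i : Fin n, g i.1 = g 0 * g 1 * g 2 := by
  rw [Fin.prod_univ_eq_prod_range g n, ← Finset.prod_range_mul_prod_Ico g (by omega : 3 ≤ n),
    Finset.prod_eq_one (s := Finset.Ico 3 n) (fun k hk => hg k (Finset.mem_Ico.1 hk).1), mul_one]
  simp [Finset.prod_range_succ]

/-- [D5] -/
theorem exists_diag5 [Fintype F] (r : ℕ) [Fact r.Prime] (hr2 : r ≠ 2) (hr3 : r ≠ 3)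
    (hr : r ∣ Fintype.card F - 1) (n : ℕ) (hn : 4 ≤ n) :
    ∃ x : Matrix.SpecialLinearGroup (Fin n) F, x ^ r = 1 ∧
      (∀ z : F, (x : Matrix (Fin n) (Fin n) F) ≠ z • (1 : Matrix (Fin n) (Fin n) F)) ∧
      NoSim (x : Matrix (Fin n) (Fin n) F) := by
  obtain ⟨L, hL0, hLr, hLk⟩ := D5_exists_order (F := F) r hr
  have hrp : r.Prime := Fact.out
  have hr5 : 5 ≤ r := by
    have h2 := hrp.two_le
    by_contra hlt
    have h4 : r = 4 := by omega
    rw [h4] at hrp
    exact absurd hrp (by norm_num)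
  have hL1 : L ≠ 1 := fun h => by
    have := Nat.le_of_dvd (by norm_num) (hLk 1 (by rw [pow_one, h])); omega
  have hL2 : L ^ 2 ≠ 1 := fun h => by
    have := Nat.le_of_dvd (by norm_num) (hLk 2 h); omega
  have hL3 : L ^ 3 ≠ 1 := fun h => by
    have := Nat.le_of_dvd (by norm_num) (hLk 3 h); omega
  have hL4 : L ^ 4 ≠ 1 := fun h => by
    have := Nat.le_of_dvd (by norm_num) (hLk 4 h); omega
  set M : F := (L ^ 2)⁻¹ with hMdef
  have hM : M * L ^ 2 = 1 := inv_mul_cancel₀ (pow_ne_zero 2 hL0)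
  have hM0 : M ≠ 0 := inv_ne_zero (pow_ne_zero 2 hL0)
  have hMr : M ^ r = 1 := by
    rw [hMdef, inv_pow, ← pow_mul, mul_comm, pow_mul, hLr, one_pow, inv_one]
  set g : ℕ → F := fun k => if k < 2 then L else if k = 2 then M else 1 with hg
  have hg3 : ∀ k, g k = L ∨ g k = M ∨ g k = 1 := by
    intro k
    simp only [hg]
    split_ifs <;> simp
  have hg2 : ∀ k, k ≠ 2 → g k = L ∨ g k = 1 := by
    intro k hk
    simp only [hg]
    split_ifs <;> simp
  refine D5_pack r (fun i : Fin n => g i.1) ?_ ?_ ⟨0, by omega⟩ ⟨3, by omega⟩ ?_ ?_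
  · rw [D5_prod hn g (fun k hk => by simp only [hg]; rw [if_neg (by omega), if_neg (by omega)])]
    simp only [hg]
    norm_num
    linear_combination hM
  · intro i
    rcases hg3 i.1 with h | h | h <;> simp only [h]
    · exact hLr
    · exact hMr
    · exact one_pow r
  · simp only [hg]
    norm_num
    exact hL1
  · intro f hf c hsim
    obtain ⟨hp1, hp2⟩ := partner _ f hf c hsim
    obtain ⟨b2, hb2, hfb2⟩ := hp2 ⟨2, by omega⟩
    obtain ⟨b3, hb3, hfb3⟩ := hp2 ⟨3, by omega⟩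
    obtain ⟨b0, hb0, hfb0⟩ := hp2 ⟨0, by omega⟩
    have e2 := hp1 _ _ hfb2
    have e3 := hp1 _ _ hfb3
    have e0 := hp1 _ _ hfb0
    have v2 : g 2 = M := by simp [hg]
    have v3 : g 3 = 1 := by simp [hg]
    have v0 : g 0 = L := by simp [hg]
    simp only [v2, v3, v0] at e2 e3 e0
    have hb2' : b2.1 ≠ 2 := fun h => hb2 (Fin.ext h)
    rcases hg2 b2.1 hb2' with h2 | h2
    · rw [h2] at e2
      rcases hg3 b3.1 with h3 | h3 | h3
      · rw [h3] at e3
        exact hL2 (by linear_combination (-L) * e2 + L * e3 + hM)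
      · rw [h3] at e3
        exact hL1 (mul_left_cancel₀ hM0 (by linear_combination e2 - e3))
      · rw [h3] at e3
        exact hL1 (by linear_combination hM - L * (e2 - e3))
    · rw [h2] at e2
      rcases hg3 b0.1 with h0 | h0 | h0
      · rw [h0] at e0
        exact hL4 (by linear_combination hM - L ^ 2 * (e2 - e0))
      · rw [h0] at e0
        exact hL1 (mul_left_cancel₀ hM0 (by linear_combination e0 - e2))
      · rw [h0] at e0
        exact hL3 (by linear_combination hM - L ^ 2 * (e2 - e0))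

end Cfsg.Agent.Lib.Helper68.SpD
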