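import Mathlib
import Cfsg.Prelude.Def_GeometricClasses

/-!
# S5968: derangements of odd prime order of PSL_n(q) on the cosets of Sp_n(q): definitions
-/

set_option autoImplicit false

namespace Cfsg.Agent.Lib.Helper68.SpD

open Cfsg Cfsg.Geo Matrix
open scoped MatrixGroups

variable {ι : Type} [Fintype ι] [DecidableEq ι] {F : Type*} [Field F]

/-- `x` is a similarity of no symplectic form. -/
def NoSim (x : Matrix ι ι F) : Prop :=
  ∀ f : (ι → F) → (ι → F) → F, IsSymplecticForm f → ∀ c : F,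
    ¬ ∀ u v, f (x *ᵥ u) (x *ᵥ v) = c * f u v

/-- the isometry group of `f` inside `SL_n`. -/
def Iso {n : ℕ} (f : (Fin n → F) → (Fin n → F) → F) :
    Subgroup (Matrix.SpecialLinearGroup (Fin n) F) where
  carrier := {g | ∀ u v, f ((g : Matrix (Fin n) (Fin n) F) *ᵥ u)
    ((g : Matrix (Fin n) (Fin n) F) *ᵥ v) = f u v}
  mul_mem' {a b} ha hb := by
    intro u v
    rw [Matrix.SpecialLinearGroup.coe_mul, ← Matrix.mulVec_mulVec, ← Matrix.mulVec_mulVec, ha, hb]
  one_mem' := fun u v => by simp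
  inv_mem' {a} ha := by
    intro u v
    have h := ha (((a⁻¹ : Matrix.SpecialLinearGroup (Fin n) F) : Matrix (Fin n) (Fin n) F) *ᵥ u)
      (((a⁻¹ : Matrix.SpecialLinearGroup (Fin n) F) : Matrix (Fin n) (Fin n) F) *ᵥ v)
    rw [Matrix.mulVec_mulVec, Matrix.mulVec_mulVec, ← Matrix.SpecialLinearGroup.coe_mul,
      mul_inv_cancel, Matrix.SpecialLinearGroup.coe_one, Matrix.one_mulVec,
      Matrix.one_mulVec] at h
    exact h.symm

end Cfsg.Agent.Lib.Helper68.SpD
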