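import Cfsg.Agent.Lib.Helper68.SpD.Defs

set_option autoImplicit false
set_option linter.unusedSectionVars false

namespace Cfsg.Agent.Lib.Helper68.SpD

open Cfsg Cfsg.Geo Matrix
open scoped MatrixGroups

variable {ι : Type} [Fintype ι] [DecidableEq ι] {F : Type*} [Field F]

/-- [E1] -/
theorem exists_Lam [Fintype F] (r : ℕ) [Fact r.Prime] (hr1 : ¬ r ∣ Fintype.card F - 1) (k : ℕ)
    (hk : 1 ≤ k) (hrk : r ∣ (Fintype.card F) ^ k - 1) :
    ∃ L : Matrix (Fin k) (Fin k) F, L ^ r = 1 ∧ L.det = 1 ∧ IsUnit (L - 1) := by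
  classical
  obtain ⟨p, hp⟩ := CharP.exists F
  have : Fact p.Prime := ⟨CharP.char_is_prime F p⟩
  have : NeZero k := ⟨by omega⟩
  let K := FiniteField.Extension F p k
  have hK : Module.finrank F K = k := FiniteField.finrank_extension F p k
  let b := Module.finBasisOfFinrankEq F K hK
  let Ψ : K →ₐ[F] Matrix (Fin k) (Fin k) F := Algebra.leftMulMatrix b
  have : Fintype K := Fintype.ofFinite K
  have hcardK : Nat.card K = Fintype.card F ^ k := by
    rw [FiniteField.natCard_extension, Nat.card_eq_fintype_card]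
  have hcu : Nat.card Kˣ = Fintype.card F ^ k - 1 := by rw [Nat.card_units, hcardK]
  obtain ⟨l, hl⟩ := exists_prime_orderOf_dvd_card' (G := Kˣ) r (by rw [hcu]; exact hrk)
  have hlr : (l : K) ^ r = 1 := by
    rw [← Units.val_pow_eq_pow_val, ← hl, pow_orderOf_eq_one, Units.val_one]
  have hl1 : (l : K) ≠ 1 := by
    intro h
    have : l = 1 := Units.ext h
    rw [this, orderOf_one] at hl
    exact (Fact.out : r.Prime).one_lt.ne hl
  have hLr : (Ψ (l : K)) ^ r = 1 := by rw [← map_pow, hlr, map_one]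
  refine ⟨Ψ (l : K), hLr, ?_, ?_⟩
  · have h1 : (Ψ (l : K)).det ^ r = 1 := by rw [← Matrix.det_pow, hLr, Matrix.det_one]
    have h0 : (Ψ (l : K)).det ≠ 0 := by
      intro h0
      rw [h0, zero_pow (Fact.out : r.Prime).ne_zero] at h1
      exact zero_ne_one h1
    have h2 : (Ψ (l : K)).det ^ (Fintype.card F - 1) = 1 := FiniteField.pow_card_sub_one_eq_one _ h0
    have hcop : Nat.gcd r (Fintype.card F - 1) = 1 :=
      ((Fact.out : r.Prime).coprime_iff_not_dvd).2 hr1
    have h3 := pow_gcd_eq_one.2 ⟨h1, h2⟩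
    rwa [hcop, pow_one] at h3
  · have : Ψ (l : K) - 1 = Ψ ((l : K) - 1) := by rw [map_sub, map_one]
    rw [this]
    exact (isUnit_iff_ne_zero.2 (sub_ne_zero.2 hl1)).map Ψ

end Cfsg.Agent.Lib.Helper68.SpD
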