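import Cfsg.Agent.Lib.Helper68.SpD.Com72
import Cfsg.Agent.Lib.Helper55.Asch.L9e

set_option autoImplicit false
set_option linter.unusedSectionVars false

namespace Cfsg.Agent.Lib.Helper68.SpD

open Cfsg Cfsg.Geo Matrix
open scoped MatrixGroups

variable {ι : Type} [Fintype ι] [DecidableEq ι] {F : Type*} [Field F]

lemma E2_pow {k : ℕ} {κ : Type} [Fintype κ] [DecidableEq κ] (A : Matrix (Fin k) (Fin k) F) (D : Matrix κ κ F)
    (j : ℕ) : (fromBlocks A 0 0 D) ^ j = fromBlocks (A ^ j) 0 0 (D ^ j) := by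
  induction j with
  | zero => simp
  | succ j ih =>
    rw [pow_succ, ih, fromBlocks_multiply]
    simp [pow_succ]

/-- the inclusion of the first summand. -/
def E2_iA {k : ℕ} (κ : Type) : (Fin k → F) →ₗ[F] (Fin k ⊕ κ → F) where
  toFun a := Sum.elim a 0
  map_add' a b := by
    funext i
    rcases i with i | i <;> simp
  map_smul' c a := by
    funext i
    rcases i with i | i <;> simp

/-- the inclusion of the second summand. -/
def E2_iZ (k : ℕ) {κ : Type} : (κ → F) →ₗ[F] (Fin k ⊕ κ → F) where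
  toFun z := Sum.elim 0 z
  map_add' a b := by
    funext i
    rcases i with i | i <;> simp
  map_smul' c a := by
    funext i
    rcases i with i | i <;> simp

/-- [E2] -/
theorem noSim_block [Fintype F] (r : ℕ) [Fact r.Prime] (hr1 : ¬ r ∣ Fintype.card F - 1)
    {k : ℕ} (hk : Odd k) {κ : Type} [Fintype κ] [DecidableEq κ] (L : Matrix (Fin k) (Fin k) F)
    (hL : L ^ r = 1) (hu : IsUnit (L - 1)) :
    NoSim (Matrix.fromBlocks L 0 0 (1 : Matrix κ κ F)) := by
  intro f hf c h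
  set x : Matrix (Fin k ⊕ κ) (Fin k ⊕ κ) F := Matrix.fromBlocks L 0 0 (1 : Matrix κ κ F) with hx
  have hk1 : 0 < k := hk.pos
  have hxr : x ^ r = 1 := by rw [hx, E2_pow, hL, one_pow, fromBlocks_one]
  have hw : (Pi.single (Sum.inl ⟨0, hk1⟩) 1 : Fin k ⊕ κ → F) ≠ 0 := by
    intro h0
    have := congrFun h0 (Sum.inl ⟨0, hk1⟩)
    simp at this
  have hcr : c ^ r = 1 := Com72_pow_eq_one hf h hxr hw
  have hc0 : c ≠ 0 := by
    rintro rfl
    rw [zero_pow (Fact.out : r.Prime).ne_zero] at hcr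
    exact zero_ne_one hcr
  have hc : c = 1 := by
    have h2 : c ^ (Fintype.card F - 1) = 1 := FiniteField.pow_card_sub_one_eq_one _ hc0
    have hcop : Nat.gcd r (Fintype.card F - 1) = 1 :=
      ((Fact.out : r.Prime).coprime_iff_not_dvd).2 hr1
    have h3 := pow_gcd_eq_one.2 ⟨hcr, h2⟩
    rwa [hcop, pow_one] at h3
  subst hc
  set B := Com72_bil f hf with hB
  have hBx : ∀ u v, B (x *ᵥ u) (x *ᵥ v) = B u v := by
    intro u v
    have := h u v
    rw [one_mul] at this
    exact this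
  have hxA : ∀ a : Fin k → F, x *ᵥ (E2_iA κ a) = E2_iA κ (L *ᵥ a) := by
    intro a
    rw [hx, fromBlocks_mulVec]
    funext i
    rcases i with i | i
    · simp only [Sum.elim_inl, E2_iA, LinearMap.coe_mk, AddHom.coe_mk]
      have e1 : (Sum.elim a (0 : κ → F)) ∘ Sum.inl = a := rfl
      have e2 : (Sum.elim a (0 : κ → F)) ∘ Sum.inr = 0 := rfl
      rw [e1, e2]
      simp
    · simp only [Sum.elim_inr, E2_iA, LinearMap.coe_mk, AddHom.coe_mk]
      have e1 : (Sum.elim a (0 : κ → F)) ∘ Sum.inl = a := rfl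
      have e2 : (Sum.elim a (0 : κ → F)) ∘ Sum.inr = 0 := rfl
      rw [e1, e2]
      simp
  have hxZ : ∀ z : κ → F, x *ᵥ (E2_iZ k z) = E2_iZ k z := by
    intro z
    rw [hx, fromBlocks_mulVec]
    funext i
    rcases i with i | i
    · simp only [Sum.elim_inl, E2_iZ, LinearMap.coe_mk, AddHom.coe_mk]
      have e1 : (Sum.elim (0 : Fin k → F) z) ∘ Sum.inl = 0 := rfl
      have e2 : (Sum.elim (0 : Fin k → F) z) ∘ Sum.inr = z := rfl
      rw [e1, e2]
      simp
    · simp only [Sum.elim_inr, E2_iZ, LinearMap.coe_mk, AddHom.coe_mk]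
      have e1 : (Sum.elim (0 : Fin k → F) z) ∘ Sum.inl = 0 := rfl
      have e2 : (Sum.elim (0 : Fin k → F) z) ∘ Sum.inr = z := rfl
      rw [e1, e2]
      simp
  obtain ⟨M, hM⟩ : ∃ M : Matrix (Fin k) (Fin k) F, (L - 1) * M = 1 := by
    obtain ⟨u, hu'⟩ := hu
    exact ⟨((u⁻¹ : (Matrix (Fin k) (Fin k) F)ˣ) : Matrix (Fin k) (Fin k) F), by rw [← hu', Units.mul_inv]⟩
  have horth : ∀ (a : Fin k → F) (z : κ → F), B (E2_iA κ a) (E2_iZ k z) = 0 := by
    intro a z
    have e : a = L *ᵥ (M *ᵥ a) - M *ᵥ a := by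
      have : (L - 1) *ᵥ (M *ᵥ a) = a := by rw [Matrix.mulVec_mulVec, hM, Matrix.one_mulVec]
      rw [Matrix.sub_mulVec, Matrix.one_mulVec] at this
      exact this.symm
    rw [e, map_sub, map_sub, LinearMap.sub_apply, ← hxA]
    conv_lhs => rw [← hxZ z]
    rw [hBx, hxZ, sub_self]
  have hdec : ∀ v : Fin k ⊕ κ → F, v = E2_iA κ (v ∘ Sum.inl) + E2_iZ k (v ∘ Sum.inr) := by
    intro v
    funext i
    rcases i with i | i <;> simp [E2_iA, E2_iZ]
  have hskew : ∀ u v, B u v = - B v u := fun u v => hf.skew u v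
  have hne : ∀ a : Fin k → F, a ≠ 0 → E2_iA κ a ≠ 0 := by
    intro a ha h0
    apply ha
    funext i
    have := congrFun h0 (Sum.inl i)
    simpa [E2_iA] using this
  have hleft : ∀ a : Fin k → F, a ≠ 0 → ∃ b : Fin k → F, B (E2_iA κ a) (E2_iA κ b) ≠ 0 := by
    intro a ha
    obtain ⟨v, hv⟩ := (hf.nondegenerate _ (hne a ha)).2
    have hv' : B (E2_iA κ a) v ≠ 0 := hv
    rw [hdec v, map_add, horth, add_zero] at hv'
    exact ⟨_, hv'⟩
  have hg : IsSymplecticForm (fun a b : Fin k → F => B (E2_iA κ a) (E2_iA κ b)) := by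
    refine ⟨⟨?_, ?_, ?_, ?_⟩, ?_, ?_, ?_⟩
    · intro a b v
      simp only [map_add, LinearMap.add_apply]
    · intro a b v
      simp only [map_smul, LinearMap.smul_apply, smul_eq_mul]
    · intro a b v
      simp only [map_add]
    · intro a b v
      simp only [map_smul, smul_eq_mul]
    · intro v w; exact hskew _ _
    · intro v; exact hf.alternating _
    · intro a ha
      obtain ⟨b, hb⟩ := hleft a ha
      refine ⟨⟨b, ?_⟩, ⟨b, hb⟩⟩
      beta_reduce
      rw [hskew]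
      exact neg_ne_zero.2 hb
  have heven := Cfsg.Agent.Lib.Helper55.Asch.even_card_of_symplectic _ hg
  rw [Fintype.card_fin] at heven
  exact (Nat.not_even_iff_odd.2 hk) heven

end Cfsg.Agent.Lib.Helper68.SpD
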