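import Cfsg.Agent.Lib.Helper68.SpD.Defs

set_option autoImplicit false
set_option linter.unusedSectionVars false

namespace Cfsg.Agent.Lib.Helper68.SpD

open Cfsg Cfsg.Geo Matrix
open scoped MatrixGroups

variable {ι : Type} [Fintype ι] [DecidableEq ι] {F : Type*} [Field F]

/-- [E3] -/
theorem noSim_reindex {κ : Type} [Fintype κ] [DecidableEq κ] (e : ι ≃ κ) (x : Matrix ι ι F)
    (hx : NoSim x) : NoSim (Matrix.reindex e e x) := by
  intro f hf c h
  have hcomp : ∀ y : κ → F, (y ∘ e) ∘ e.symm = y := by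
    intro y; funext a; simp
  have hne : ∀ v : ι → F, v ≠ 0 → v ∘ e.symm ≠ 0 := by
    intro v hv h0
    apply hv
    funext i
    have := congrFun h0 (e i)
    simpa using this
  refine hx (fun u v => f (u ∘ e.symm) (v ∘ e.symm)) ?_ c ?_
  · refine ⟨⟨?_, ?_, ?_, ?_⟩, ?_, ?_, ?_⟩
    · intro a b v; exact hf.bilinear.add_left _ _ _
    · intro a b v; exact hf.bilinear.smul_left _ _ _
    · intro a b v; exact hf.bilinear.add_right _ _ _
    · intro a b v; exact hf.bilinear.smul_right _ _ _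
    · intro v w; exact hf.skew _ _
    · intro v; exact hf.alternating _
    · intro v hv
      obtain ⟨⟨y, hy⟩, ⟨y', hy'⟩⟩ := hf.nondegenerate _ (hne v hv)
      exact ⟨⟨y ∘ e, by beta_reduce; rw [hcomp]; exact hy⟩, ⟨y' ∘ e, by beta_reduce; rw [hcomp]; exact hy'⟩⟩
  · intro u v
    have key : ∀ u : ι → F, (x *ᵥ u) ∘ e.symm = (Matrix.reindex e e x) *ᵥ (u ∘ e.symm) := by
      intro u
      rw [Matrix.reindex_apply, Matrix.submatrix_mulVec_equiv]
      congr 2
      funext i
      simp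
    show f ((x *ᵥ u) ∘ e.symm) ((x *ᵥ v) ∘ e.symm) = c * f (u ∘ e.symm) (v ∘ e.symm)
    rw [key, key, h]

end Cfsg.Agent.Lib.Helper68.SpD
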