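import Cfsg.Agent.Lib.Helper68.SpD.E1
import Cfsg.Agent.Lib.Helper68.SpD.E2
import Cfsg.Agent.Lib.Helper68.SpD.E3

set_option autoImplicit false
set_option linter.unusedSectionVars false

namespace Cfsg.Agent.Lib.Helper68.SpD

open Cfsg Cfsg.Geo Matrix
open scoped MatrixGroups

variable {ι : Type} [Fintype ι] [DecidableEq ι] {F : Type*} [Field F]

/-- [E4] -/
theorem exists_block [Fintype F] (r : ℕ) [Fact r.Prime] (hr1 : ¬ r ∣ Fintype.card F - 1)
    (k n : ℕ) (hk : Odd k) (hkn : k < n) (hrk : r ∣ (Fintype.card F) ^ k - 1) :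
    ∃ x : Matrix.SpecialLinearGroup (Fin n) F, x ^ r = 1 ∧
      (∀ z : F, (x : Matrix (Fin n) (Fin n) F) ≠ z • (1 : Matrix (Fin n) (Fin n) F)) ∧
      NoSim (x : Matrix (Fin n) (Fin n) F) := by
  have hk1 : 1 ≤ k := hk.pos
  obtain ⟨L, hLr, hLd, hLu⟩ := exists_Lam r hr1 k hk1 hrk
  let e : Fin k ⊕ Fin (n - k) ≃ Fin n := finSumFinEquiv.trans (finCongr (by omega))
  set M : Matrix (Fin k ⊕ Fin (n - k)) (Fin k ⊕ Fin (n - k)) F :=
    Matrix.fromBlocks L 0 0 (1 : Matrix (Fin (n - k)) (Fin (n - k)) F) with hM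
  have hdet : (Matrix.reindex e e M).det = 1 := by
    rw [Matrix.det_reindex_self, hM, Matrix.det_fromBlocks_zero₂₁, hLd, Matrix.det_one, one_mul]
  obtain ⟨X, hX⟩ : ∃ X : Matrix.SpecialLinearGroup (Fin n) F,
      (X : Matrix (Fin n) (Fin n) F) = Matrix.reindex e e M := ⟨⟨_, hdet⟩, rfl⟩
  have hMr : M ^ r = 1 := by rw [hM, E2_pow, hLr, one_pow, fromBlocks_one]
  refine ⟨X, ?_, ?_, ?_⟩
  · apply Matrix.SpecialLinearGroup.ext
    intro a b
    rw [Matrix.SpecialLinearGroup.coe_pow, hX, Matrix.SpecialLinearGroup.coe_one]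
    have : (Matrix.reindex e e M) ^ r = 1 := by
      have h1 : Matrix.reindexAlgEquiv F F e M = Matrix.reindex e e M := rfl
      rw [← h1, ← map_pow, hMr, map_one]
    rw [this]
  · intro z hz
    rw [hX] at hz
    have hent : ∀ a b, M a b = z • (1 : Matrix (Fin n) (Fin n) F) (e a) (e b) := by
      intro a b
      have := congrFun (congrFun hz (e a)) (e b)
      simpa [Matrix.reindex_apply, Matrix.submatrix_apply] using this
    have hz1 : z = 1 := by
      have := hent (Sum.inr ⟨0, by omega⟩) (Sum.inr ⟨0, by omega⟩)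
      rw [hM, Matrix.fromBlocks_apply₂₂, Matrix.one_apply_eq, Matrix.one_apply_eq, smul_eq_mul, mul_one] at this
      exact this.symm
    have hL1 : L = 1 := by
      ext i j
      have := hent (Sum.inl i) (Sum.inl j)
      rw [hM, Matrix.fromBlocks_apply₁₁, hz1, one_smul] at this
      rw [this, Matrix.one_apply, Matrix.one_apply]
      simp
    rw [hL1, sub_self] at hLu
    have : Nonempty (Fin k) := ⟨⟨0, by omega⟩⟩
    exact not_isUnit_zero hLu
  · rw [hX]
    exact noSim_reindex e M (noSim_block r hr1 hk L hLr hLu)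

end Cfsg.Agent.Lib.Helper68.SpD
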