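import Cfsg.Agent.Lib.Helper68.SpD.Defs
import Cfsg.Agent.Lib.Helper44.SympSimil
import Cfsg.Agent.Lib.Helper5.SpOrder

set_option autoImplicit false

namespace Cfsg.Agent.Lib.Helper68.SpD

open Cfsg Cfsg.Geo Matrix
open scoped MatrixGroups

variable {ι : Type} [Fintype ι] [DecidableEq ι] {F : Type*} [Field F]

/-- [I1] -/
theorem card_Iso [Fintype F] (m : ℕ) (f : (Fin (2 * m) → F) → (Fin (2 * m) → F) → F)
    (hf : IsSymplecticForm f) :
    Nat.card (Iso f) = (Fintype.card F) ^ (m ^ 2) *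
      ∏ i ∈ Finset.range m, ((Fintype.card F) ^ (2 * (i + 1)) - 1) := by
  classical
  let B : LinearMap.BilinForm F (Fin (2 * m) → F) :=
    LinearMap.mk₂ F f hf.bilinear.add_left hf.bilinear.smul_left hf.bilinear.add_right
      hf.bilinear.smul_right
  have hB : ∀ u v, B u v = f u v := fun _ _ => rfl
  have hA : B.IsAlt := fun v => hf.alternating v
  have hnd : B.Nondegenerate := by
    constructor
    · intro x hx
      by_contra hne
      obtain ⟨y, hy⟩ := (hf.nondegenerate x hne).2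
      exact hy (hx y)
    · intro x hx
      by_contra hne
      obtain ⟨y, hy⟩ := (hf.nondegenerate x hne).1
      exact hy (hx y)
  obtain ⟨φ, hφ⟩ := Cfsg.Agent.Lib.Helper44.exists_alt_isometry B (Cfsg.Agent.Lib.Helper94.sympB m F) hnd
    (Cfsg.Agent.Lib.Helper94.sympB_nondegenerate m) hA (Cfsg.Agent.Lib.Helper94.sympB_isAlt m)
    (by
      rw [Module.finrank_fintype_fun_eq_card, Module.finrank_fintype_fun_eq_card]
      simp
      omega)
  have hS : ∀ u v, u ⬝ᵥ (Matrix.J (Fin m) F *ᵥ v) = Cfsg.Agent.Lib.Helper94.sympB m F u v := by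
    intro u v
    simp [Cfsg.Agent.Lib.Helper94.sympB, Matrix.toBilin'_apply']
  rw [← Cfsg.Agent.Lib.Helper5.card_symplecticGroup m]
  have hmem : ∀ g : Iso f, LinearMap.toMatrix' ((φ : (Fin (2 * m) → F) →ₗ[F] (Fin m ⊕ Fin m → F)) ∘ₗ
      Matrix.toLin' ((g.1 : Matrix.SpecialLinearGroup (Fin (2 * m)) F) : Matrix (Fin (2 * m)) (Fin (2 * m)) F) ∘ₗ
      (φ.symm : (Fin m ⊕ Fin m → F) →ₗ[F] (Fin (2 * m) → F))) ∈ Matrix.symplecticGroup (Fin m) F := by
    intro g
    rw [Cfsg.Agent.Lib.Helper45.mem_symplecticGroup_iff_form]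
    intro u v
    rw [LinearMap.toMatrix'_mulVec, LinearMap.toMatrix'_mulVec, hS, hS]
    simp only [LinearMap.comp_apply, LinearEquiv.coe_coe, Matrix.toLin'_apply]
    rw [hφ, hB, g.2, ← hB, ← hφ, LinearEquiv.apply_symm_apply, LinearEquiv.apply_symm_apply]
  apply Nat.card_eq_of_bijective (fun g : Iso f => (⟨_, hmem g⟩ : Matrix.symplecticGroup (Fin m) F))
  constructor
  · intro g g' h
    have h1 := congrArg Subtype.val h
    simp only at h1
    have h2 := LinearMap.toMatrix'.injective h1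
    apply Subtype.ext
    apply Subtype.ext
    apply Matrix.toLin'.injective
    refine LinearMap.ext fun x => ?_
    have h3 := LinearMap.congr_fun h2 (φ x)
    simp only [LinearMap.comp_apply, LinearEquiv.coe_coe, LinearEquiv.symm_apply_apply] at h3
    exact φ.injective h3
  · intro A
    have hdet : (LinearMap.toMatrix' ((φ.symm : (Fin m ⊕ Fin m → F) →ₗ[F] (Fin (2 * m) → F)) ∘ₗ
        Matrix.toLin' (A.1 : Matrix (Fin m ⊕ Fin m) (Fin m ⊕ Fin m) F) ∘ₗ
        (φ : (Fin (2 * m) → F) →ₗ[F] (Fin m ⊕ Fin m → F)))).det = 1 := by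
      rw [LinearMap.det_toMatrix']
      have h1 := LinearMap.det_conj (Matrix.toLin' (A.1 : Matrix (Fin m ⊕ Fin m) (Fin m ⊕ Fin m) F)) φ.symm
      rw [LinearEquiv.symm_symm] at h1
      rw [h1, LinearMap.det_toLin', SymplecticGroup.det_eq_one A.2]
    have hiso : (⟨_, hdet⟩ : Matrix.SpecialLinearGroup (Fin (2 * m)) F) ∈ Iso f := by
      intro u v
      show f (LinearMap.toMatrix' _ *ᵥ u) (LinearMap.toMatrix' _ *ᵥ v) = f u v
      rw [LinearMap.toMatrix'_mulVec, LinearMap.toMatrix'_mulVec, ← hB, ← hφ, ← hB u v, ← hφ u v]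
      simp only [LinearMap.comp_apply, LinearEquiv.coe_coe, Matrix.toLin'_apply,
        LinearEquiv.apply_symm_apply]
      rw [← hS, ← hS]
      exact (Cfsg.Agent.Lib.Helper45.mem_symplecticGroup_iff_form A.1).1 A.2 _ _
    refine ⟨⟨_, hiso⟩, ?_⟩
    apply Subtype.ext
    show LinearMap.toMatrix' ((φ : (Fin (2 * m) → F) →ₗ[F] (Fin m ⊕ Fin m → F)) ∘ₗ
      Matrix.toLin' (LinearMap.toMatrix' _) ∘ₗ
      (φ.symm : (Fin m ⊕ Fin m → F) →ₗ[F] (Fin (2 * m) → F))) = A.1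
    rw [Matrix.toLin'_toMatrix']
    have h2 : ((φ : (Fin (2 * m) → F) →ₗ[F] (Fin m ⊕ Fin m → F)) ∘ₗ
        ((φ.symm : (Fin m ⊕ Fin m → F) →ₗ[F] (Fin (2 * m) → F)) ∘ₗ
        Matrix.toLin' (A.1 : Matrix (Fin m ⊕ Fin m) (Fin m ⊕ Fin m) F) ∘ₗ
        (φ : (Fin (2 * m) → F) →ₗ[F] (Fin m ⊕ Fin m → F))) ∘ₗ
        (φ.symm : (Fin m ⊕ Fin m → F) →ₗ[F] (Fin (2 * m) → F)))
        = Matrix.toLin' (A.1 : Matrix (Fin m ⊕ Fin m) (Fin m ⊕ Fin m) F) := by
      refine LinearMap.ext fun x => ?_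
      simp only [LinearMap.comp_apply, LinearEquiv.coe_coe, LinearEquiv.apply_symm_apply]
    rw [h2, LinearMap.toMatrix'_toLin']

end Cfsg.Agent.Lib.Helper68.SpD
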