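import Mathlib

set_option autoImplicit false

namespace Cfsg.Agent.Lib.Helper68.SpD

theorem I3_split (a : ℕ → ℕ) (t : ℕ) :
    ∏ i ∈ Finset.range (2 * t + 1), a (i + 2)
      = (∏ i ∈ Finset.range (t + 1), a (2 * (i + 1))) * ∏ j ∈ Finset.range t, a (2 * j + 3) := by
  induction t with
  | zero => simp
  | succ t ih =>
    have e : 2 * (t + 1) + 1 = (2 * t + 1) + 1 + 1 := by ring
    rw [e, Finset.prod_range_succ, Finset.prod_range_succ, ih,
      Finset.prod_range_succ (fun i => a (2 * (i + 1))) (t + 1),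
      Finset.prod_range_succ (fun j => a (2 * j + 3)) t]
    have e1 : 2 * t + 1 + 2 = 2 * t + 3 := by ring
    have e2 : 2 * t + 1 + 1 + 2 = 2 * (t + 1 + 1) := by ring
    rw [e1, e2]
    ring

/-- [I3] -/
theorem arith (q m : ℕ) (hq : 2 ≤ q) (hm : 1 ≤ m) :
    q ^ ((2 * m) * (2 * m - 1) / 2) * ∏ i ∈ Finset.range (2 * m - 1), (q ^ (i + 2) - 1)
      = (q ^ (m ^ 2) * ∏ i ∈ Finset.range m, (q ^ (2 * (i + 1)) - 1)) *
        (q ^ (m * (m - 1)) * ∏ j ∈ Finset.range (m - 1), (q ^ (2 * j + 3) - 1)) := by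
  obtain ⟨t, rfl⟩ : ∃ t, m = t + 1 := ⟨m - 1, by omega⟩
  have e1 : 2 * (t + 1) - 1 = 2 * t + 1 := by omega
  have e2 : t + 1 - 1 = t := by omega
  have e3 : (2 * (t + 1)) * (2 * t + 1) / 2 = (t + 1) ^ 2 + (t + 1) * t := by
    have : (2 * (t + 1)) * (2 * t + 1) = 2 * ((t + 1) ^ 2 + (t + 1) * t) := by ring
    rw [this, Nat.mul_div_cancel_left _ (by norm_num)]
  rw [e1, e2, e3, I3_split (fun k => q ^ k - 1) t, pow_add]
  ring

end Cfsg.Agent.Lib.Helper68.SpD
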