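import Cfsg.Agent.Lib.Helper68.SpD.Defs
import Cfsg.Agent.Lib.Helper68.SpD.I1
import Cfsg.Agent.Lib.Helper68.SpD.I2
import Cfsg.Agent.Lib.Helper68.SpD.I3

set_option autoImplicit false

namespace Cfsg.Agent.Lib.Helper68.SpD

open Cfsg Cfsg.Geo Matrix
open scoped MatrixGroups

variable {ι : Type} [Fintype ι] [DecidableEq ι] {F : Type*} [Field F]

/-- [I4] -/
theorem idx [Fintype F] (n : ℕ) (hn : 4 ≤ n) (he : Even n)
    (f : (Fin n → F) → (Fin n → F) → F) (hf : IsSymplecticForm f) (r : ℕ) [Fact r.Prime]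
    (hΩ : r ∣ ((similarityGroup f).comap (Matrix.SpecialLinearGroup.toGL :
      Matrix.SpecialLinearGroup (Fin n) F →* GL (Fin n) F)).index) :
    r ∣ Fintype.card F ∨ ∃ k, Odd k ∧ k < n ∧ r ∣ (Fintype.card F) ^ k - 1 := by
  classical
  obtain ⟨m, hm⟩ := he
  have hn2 : n = 2 * m := by omega
  subst hn2
  have hr : r.Prime := Fact.out
  have hq : 2 ≤ Fintype.card F := Fintype.one_lt_card
  have hle : Iso f ≤ (similarityGroup f).comap (Matrix.SpecialLinearGroup.toGL :
      Matrix.SpecialLinearGroup (Fin (2 * m)) F →* GL (Fin (2 * m)) F) := by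
    intro g hg
    refine ⟨1, fun u v => ?_⟩
    rw [Units.val_one, one_mul]
    exact hg u v
  have h1 : r ∣ (Iso f).index := hΩ.trans (Subgroup.index_dvd_of_le hle)
  have h2 := (Iso f).index_mul_card
  rw [card_Iso m f hf, card_SL (2 * m) (by omega), arith _ m hq (by omega)] at h2
  have hpos : 0 < (Fintype.card F) ^ (m ^ 2) *
      ∏ i ∈ Finset.range m, ((Fintype.card F) ^ (2 * (i + 1)) - 1) := by
    apply Nat.mul_pos (pow_pos (by omega) _)
    apply Finset.prod_pos
    intro i _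
    have : 1 < Fintype.card F ^ (2 * (i + 1)) := Nat.one_lt_pow (by omega) (by omega)
    omega
  have h3 : (Iso f).index = Fintype.card F ^ (m * (m - 1)) *
      ∏ j ∈ Finset.range (m - 1), (Fintype.card F ^ (2 * j + 3) - 1) := by
    apply Nat.eq_of_mul_eq_mul_right hpos
    rw [h2]
    ring
  rw [h3] at h1
  rcases (Nat.Prime.dvd_mul hr).1 h1 with h4 | h4
  · left
    exact hr.dvd_of_dvd_pow h4
  · right
    obtain ⟨j, hj, hjr⟩ := (Prime.dvd_finsetProd_iff hr.prime _).1 h4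
    have hj' := Finset.mem_range.1 hj
    exact ⟨2 * j + 3, ⟨j + 1, by ring⟩, by omega, hjr⟩

end Cfsg.Agent.Lib.Helper68.SpD
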