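import Cfsg.Agent.Lib.Helper68.SpD.U1

set_option autoImplicit false
set_option linter.unusedSectionVars false
set_option linter.unusedSimpArgs false

namespace Cfsg.Agent.Lib.Helper68.SpD

open Cfsg Cfsg.Geo Matrix
open scoped MatrixGroups

variable {ι : Type} [Fintype ι] [DecidableEq ι] {F : Type*} [Field F]

/-- [U2] -/
theorem exists_unip {p : ℕ} [Fact p.Prime] [CharP F p] (hp2 : p ≠ 2) (n : ℕ) (hn : 4 ≤ n) :
    ∃ x : Matrix.SpecialLinearGroup (Fin n) F, x ^ p = 1 ∧
      (∀ z : F, (x : Matrix (Fin n) (Fin n) F) ≠ z • (1 : Matrix (Fin n) (Fin n) F)) ∧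
      NoSim (x : Matrix (Fin n) (Fin n) F) := by
  have : Nonempty (Fin n) := ⟨⟨0, by omega⟩⟩
  set i0 : Fin n := ⟨0, by omega⟩ with hi0
  set i1 : Fin n := ⟨1, by omega⟩ with hi1
  set i2 : Fin n := ⟨2, by omega⟩ with hi2
  have h01 : i0 ≠ i1 := by simp [hi0, hi1]
  have h12 : i1 ≠ i2 := by simp [hi1, hi2]
  have h02 : i0 ≠ i2 := by simp [hi0, hi2]
  set N : Matrix (Fin n) (Fin n) F := Matrix.single i0 i1 1 + Matrix.single i1 i2 1 + Matrix.single i0 i2 1 with hN
  have hN2 : N ^ 2 = Matrix.single i0 i2 1 := by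
    rw [pow_two, hN]
    simp only [add_mul, mul_add]
    rw [Matrix.single_mul_single_of_ne _ _ _ _ h01.symm, Matrix.single_mul_single_same,
      Matrix.single_mul_single_of_ne _ _ _ _ h01.symm, Matrix.single_mul_single_of_ne _ _ _ _ h02.symm,
      Matrix.single_mul_single_of_ne _ _ _ _ h12.symm, Matrix.single_mul_single_of_ne _ _ _ _ h02.symm,
      Matrix.single_mul_single_of_ne _ _ _ _ h02.symm, Matrix.single_mul_single_of_ne _ _ _ _ h12.symm,
      Matrix.single_mul_single_of_ne _ _ _ _ h02.symm]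
    simp
  have hN3 : N ^ 3 = 0 := by
    rw [pow_succ, hN2, hN]
    simp only [mul_add]
    rw [Matrix.single_mul_single_of_ne _ _ _ _ h02.symm, Matrix.single_mul_single_of_ne _ _ _ _ h12.symm,
      Matrix.single_mul_single_of_ne _ _ _ _ h02.symm]
    simp
  have hx : Matrix.transvection i0 i1 (1 : F) * Matrix.transvection i1 i2 (1 : F) = 1 + N := by
    rw [Matrix.transvection, Matrix.transvection, add_mul, mul_add, mul_add, one_mul, one_mul, mul_one,
      Matrix.single_mul_single_same, hN, mul_one]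
    abel
  have hdet : (1 + N).det = 1 := by
    rw [← hx, Matrix.det_mul, Matrix.det_transvection_of_ne _ _ h01, Matrix.det_transvection_of_ne _ _ h12,
      one_mul]
  obtain ⟨X, hX⟩ : ∃ X : Matrix.SpecialLinearGroup (Fin n) F, (X : Matrix (Fin n) (Fin n) F) = 1 + N :=
    ⟨⟨1 + N, hdet⟩, rfl⟩
  refine ⟨X, ?_, ?_, ?_⟩
  · apply Matrix.SpecialLinearGroup.ext
    intro a b
    rw [Matrix.SpecialLinearGroup.coe_pow, hX, U1_pow hp2 N hN3, Matrix.SpecialLinearGroup.coe_one]
  · intro z hz
    rw [hX] at hz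
    have h1 := congrFun (congrFun hz i0) i1
    have h2 : (1 + N) i0 i1 = z • (1 : Matrix (Fin n) (Fin n) F) i0 i1 := h1
    rw [Matrix.one_apply_ne h01, smul_zero, Matrix.add_apply, Matrix.one_apply_ne h01, hN] at h2
    simp [Matrix.single_apply, h01, h12, h02, h01.symm, h12.symm, h02.symm] at h2
  · rw [hX]
    apply noSim_of_nilp hp2 N hN3 (Pi.single i0 1) (Pi.single i2 1)
    · intro h
      have := congrFun h i0
      simp at this
    · intro h
      have := congrFun h i2
      simp at this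
    · intro u
      rw [hN2, single_dotProduct, one_mul]
      funext j
      simp only [Matrix.mulVec, dotProduct, Matrix.single_apply, Pi.smul_apply, Pi.single_apply, smul_eq_mul]
      by_cases hj : j = i0
      · subst hj
        simp
      · simp [hj, Ne.symm hj]

end Cfsg.Agent.Lib.Helper68.SpD
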