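import Cfsg.Agent.Lib.Helper68.SpD.CJ
import Cfsg.Agent.Lib.Helper68.SpD.I4
import Cfsg.Agent.Lib.Helper68.SpD.U2
import Cfsg.Agent.Lib.Helper68.SpD.D5
import Cfsg.Agent.Lib.Helper68.SpD.D3
import Cfsg.Agent.Lib.Helper68.SpD.E4

set_option autoImplicit false

namespace Cfsg.Agent.Lib.Helper68.SpD

open Cfsg Cfsg.Geo Matrix
open scoped MatrixGroups

/-- assembly -/
theorem main {F : Type*} [Field F] [Fintype F] {p : ℕ} [Fact p.Prime] [CharP F p]
    (n : ℕ) (hn : 4 ≤ n) (he : Even n) (f : (Fin n → F) → (Fin n → F) → F)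
    (hf : IsSymplecticForm f) (r : ℕ) [Fact r.Prime] (hr2 : r ≠ 2) (hgap : ¬ (n = 6 ∧ r = 3))
    (hΩ : r ∣ ((similarityGroup f).comap (Matrix.SpecialLinearGroup.toGL :
      Matrix.SpecialLinearGroup (Fin n) F →* GL (Fin n) F)).index) :
    ∃ x : Matrix.SpecialLinearGroup (Fin n) F, x ^ r = 1 ∧
      (∀ z : F, (x : Matrix (Fin n) (Fin n) F) ≠ z • (1 : Matrix (Fin n) (Fin n) F)) ∧
      NoSim (x : Matrix (Fin n) (Fin n) F) := by
  rcases idx n hn he f hf r hΩ with h | ⟨k, hk, hkn, hrk⟩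
  · have hrp : r = p := by
      obtain ⟨a, hp, ha⟩ := FiniteField.card F p
      rw [ha] at h
      exact (Nat.prime_dvd_prime_iff_eq (Fact.out) hp).1 ((Fact.out : r.Prime).dvd_of_dvd_pow h)
    subst hrp
    exact exists_unip hr2 n hn
  · by_cases h1 : r ∣ Fintype.card F - 1
    · by_cases h3 : r = 3
      · subst h3
        exact exists_diag3 h1 n hn (fun h6 => hgap ⟨h6, rfl⟩)
      · exact exists_diag5 r hr2 h3 h1 n hn
    · exact exists_block r h1 k n hk hkn hrk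

end Cfsg.Agent.Lib.Helper68.SpD
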