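import Cfsg.Agent.Lib.Helper68.SpD.Com72

set_option autoImplicit false
set_option linter.unusedSectionVars false

namespace Cfsg.Agent.Lib.Helper68.SpD

open Cfsg Cfsg.Geo Matrix
open scoped MatrixGroups

variable {ι : Type} [Fintype ι] [DecidableEq ι] {F : Type*} [Field F]

lemma U1_pow {p : ℕ} [Fact p.Prime] [CharP F p] (hp2 : p ≠ 2) [Nonempty ι] (N : Matrix ι ι F)
    (h3 : N ^ 3 = 0) : (1 + N) ^ p = 1 := by
  have hp3 : 3 ≤ p := by
    have := (Fact.out : p.Prime).two_le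
    omega
  have hNp : N ^ p = 0 := by
    obtain ⟨k, rfl⟩ : ∃ k, p = 3 + k := ⟨p - 3, by omega⟩
    rw [pow_add, h3, zero_mul]
  rw [add_pow_char_of_commute p (Commute.one_left N), one_pow, hNp, add_zero]

/-- [U1] -/
theorem noSim_of_nilp {p : ℕ} [Fact p.Prime] [CharP F p] (hp2 : p ≠ 2) (N : Matrix ι ι F)
    (h3 : N ^ 3 = 0) (w φ : ι → F) (hw : w ≠ 0) (hφ : φ ≠ 0)
    (h2 : ∀ u, (N ^ 2) *ᵥ u = (φ ⬝ᵥ u) • w) : NoSim (1 + N) := by
  intro f hf c h
  obtain ⟨i, hi⟩ : ∃ i, φ i ≠ 0 := by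
    by_contra hcon
    push Not at hcon
    exact hφ (funext hcon)
  have : Nonempty ι := ⟨i⟩
  have hcp : c ^ p = 1 := Com72_pow_eq_one hf h (U1_pow hp2 N h3) hw
  have hc : c = 1 := by
    have h1 : (c - 1) ^ p = 0 := by rw [sub_pow_char, hcp, one_pow, sub_self]
    exact sub_eq_zero.1 (pow_eq_zero_iff (Fact.out : p.Prime).ne_zero |>.1 h1)
  subst hc
  set B := Com72_bil f hf with hB
  have hBf : ∀ u v, f u v = B u v := fun u v => rfl
  have star : ∀ u v, B (N *ᵥ u) v + B u (N *ᵥ v) + B (N *ᵥ u) (N *ᵥ v) = 0 := by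
    intro u v
    have h1 := h u v
    rw [Matrix.add_mulVec, Matrix.add_mulVec, Matrix.one_mulVec, Matrix.one_mulVec, hBf, hBf, map_add, map_add,
      LinearMap.add_apply, LinearMap.add_apply] at h1
    linear_combination h1
  have hN3 : ∀ u, N *ᵥ ((N ^ 2) *ᵥ u) = 0 := by
    intro u
    rw [Matrix.mulVec_mulVec, ← pow_succ', h3, Matrix.zero_mulVec]
  have hN2 : ∀ u, N *ᵥ (N *ᵥ u) = (N ^ 2) *ᵥ u := by
    intro u
    rw [Matrix.mulVec_mulVec, pow_two]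
  have s1 : ∀ u, B ((N ^ 2) *ᵥ u) (N *ᵥ u) = 0 := by
    intro u
    have := star ((N ^ 2) *ᵥ u) u
    rw [hN3] at this
    simpa using this
  have s2 : ∀ u, B ((N ^ 2) *ᵥ u) u = 0 := by
    intro u
    have := star (N *ᵥ u) u
    rw [hN2, s1] at this
    have halt : B (N *ᵥ u) (N *ᵥ u) = 0 := hf.alternating _
    rw [halt] at this
    simpa using this
  have s3 : ∀ u, (φ ⬝ᵥ u) * B w u = 0 := by
    intro u
    have := s2 u
    rw [h2, map_smul, LinearMap.smul_apply, smul_eq_mul] at this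
    exact this
  obtain ⟨u₂, hu₂⟩ := (hf.nondegenerate w hw).2
  have hu₂' : B w u₂ ≠ 0 := hu₂
  set u₁ : ι → F := Pi.single i 1 with hu₁
  have hφ1 : φ ⬝ᵥ u₁ ≠ 0 := by
    rw [hu₁, dotProduct_single, mul_one]
    exact hi
  have a1 : B w u₁ = 0 := (mul_eq_zero.1 (s3 u₁)).resolve_left hφ1
  have a2 : φ ⬝ᵥ u₂ = 0 := (mul_eq_zero.1 (s3 u₂)).resolve_right hu₂'
  have a3 := s3 (u₁ + u₂)
  rw [dotProduct_add, a2, add_zero, map_add, a1, zero_add] at a3
  exact (mul_ne_zero hφ1 hu₂') a3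

end Cfsg.Agent.Lib.Helper68.SpD
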